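import Cfsg.Agent.PQ.Th.Grp
import Cfsg.Agent.H531.GU.Adj

/-!
# PQ, box LOC: the operators on functions of types (helper48)

`EOK M` : the relations of the local operators on `Ty M.I → ℂ` (no groups).
-/

set_option autoImplicit false
set_option linter.unusedSectionVars false

namespace Cfsg.Agent.PQ.Lc

open Module Cfsg Cfsg.Agent.H615.GU Cfsg.Agent.H531.GU Cfsg.Agent.PQ.Th
open scoped ComplexConjugate

attribute [local instance] Pm.fI Pm.dI

variable (M : Pm)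

/-- functions of types -/
abbrev E : Type := Ty M.I → ℂ

/-- `d i • p^{(i)}_{j / d i}` -/
noncomputable def Dp (j : ℕ) (i : M.I) : End ℂ (E M) :=
  if M.d i ∣ j then (M.d i : ℂ) • H531.GU.lft i (pp ((M.Q : ℂ) ^ M.d i) (j / M.d i)) else 0

/-- its adjoint -/
noncomputable def Sp (j : ℕ) (i : M.I) : End ℂ (E M) :=
  if M.d i ∣ j then ((ep M.ng j : ℂ) * M.d i) • H531.GU.lft i (ps ((M.Q : ℂ) ^ M.d i) (j / M.d i)) else 0

/-- the creation operators -/
noncomputable def DE (j : ℕ) (α : M.I → ℂ) : End ℂ (E M) := ∑ i, α i • Dp M j i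

/-- the annihilation operators -/
noncomputable def SE (j : ℕ) (α : M.I → ℂ) : End ℂ (E M) := ∑ i, conj (α i) • Sp M j i

/-- multiplication by a function of the sizes -/
noncomputable def mE (F : (M.I → ℕ) → ℂ) : End ℂ (E M) where
  toFun f lam := F (fun i => (lam i).size) * f lam
  map_add' _ _ := funext fun _ => mul_add _ _ _
  map_smul' _ _ := funext fun _ => mul_left_comm _ _ _

theorem mE_apply (F : (M.I → ℕ) → ℂ) (f : E M) (lam : Ty M.I) : mE M F f lam = F (fun i => (lam i).size) * f lam := rfl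

/-- `A` has degree `j` -/
def Dg (j : ℤ) (A : End ℂ (E M)) : Prop :=
  ∀ f lam, (∀ mu, (tdeg M.d mu : ℤ) + j = tdeg M.d lam → f mu = 0) → A f lam = 0

/-- **the relations of the local operators** -/
structure EOK : Prop where
  fin : ∀ n, {lam : Ty M.I | tdeg M.d lam = n}.Finite
  sg : ∀ j, (M.Q.sign : ℂ) ^ j = ep M.ng j
  Ag_ne : ∀ lam, Ag M.d M.Q lam ≠ 0
  deg : ∀ lam : Ty M.I, tdeg M.d lam = ∑ i, M.d i * (lam i).size
  deg_zero : ∀ lam : Ty M.I, tdeg M.d lam = 0 → lam = 0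
  D0 : ∀ i, Dp M 0 i = 0
  dgD : ∀ (j : ℕ) i, Dg M j (Dp M j i)
  dgS : ∀ (j : ℕ) i, Dg M (-j) (Sp M j i)
  dgU : ∀ j : ℕ, Dg M j (Uop M.d M.Q j)
  dgA : ∀ j : ℕ, Dg M (-j) (Uad M.d M.Q j)
  adj : ∀ j α n f x, ipt M.d M.Q (n + j) (DE M j α f) x = ipt M.d M.Q n f (SE M j α x)
  DD : ∀ j α l β, DE M j α * DE M l β = DE M l β * DE M j α
  SD : ∀ j α l β, SE M j α * DE M l β = DE M l β * SE M j α +
    (if j = l then (j : ℂ) * (∑ i with M.d i ∣ j, conj (α i) * β i * M.d i) / nn M.ng M.q₀ j else 0) • 1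
  mul_D : ∀ F j i, mE M F * Dp M j i = Dp M j i * mE M fun v => F (v + Pi.single i (j / M.d i))
  nwD : ∀ a, nw (fun j => DE M j 1) a = Uop M.d M.Q a
  nwS : ∀ b, nw (fun j => SE M j 1) b = (ep M.ng b : ℂ) • Uad M.d M.Q b
  th : ∀ (x : E M) (m : ℕ) (lam : Ty M.I), ∑ mu ∈ tofDeg M.d m, (M.Q : ℂ) ^ tip M.d lam mu * x mu / Ag M.d M.Q mu =
    ∑ i ∈ Finset.range (min m (tdeg M.d lam) + 1), Uop M.d M.Q (tdeg M.d lam - i) (Uad M.d M.Q (m - i) x) lam
  cpl : ∀ (u : E M) (v : M.I → ℕ) (i : M.I), 0 < v i → mE M (Pi.single v 1) u = u → (∀ j, Sp M j i u = 0) → u = 0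
  ds : ∀ (i : M.I) (f : E M) (lam : Ty M.I), M.d i = 1 → (lam i).size = 1 → (∀ j, j ≠ i → lam j = 0) →
    nn M.ng M.q₀ 1 * Sp M 1 i f 0 = f lam
  on : ∀ j lam, Uop M.d M.Q j vac lam = if tdeg M.d lam = j then 1 else 0

end Cfsg.Agent.PQ.Lc
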