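import Cfsg.Agent.PQ.Loc.Defs
import Cfsg.Agent.PQ.Rel.Bas
import Cfsg.Agent.H235.Ore.ClassList

/-!
# PQ, box LOC: slices of class functions (helper48)

* `pt Q lam y` : an element of type `lam` with rest `y`; `sl Q y f` : the slice of `f` at `y`, with the signs;
* `Rp Q A a` : the operator `a` on class functions acts as `A` on all slices; `op` : existence;
* `sum_cl` : the sum over the groups of one rank in terms of slices.
-/

set_option autoImplicit false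
set_option linter.unusedSectionVars false

namespace Cfsg.Agent.PQ.Lc

open Module Cfsg Cfsg.Agent.H615.GU Cfsg.Agent.H531.GU Cfsg.Agent.PQ.Th
open scoped ComplexConjugate

attribute [local instance] GT.grp GT.fin Pm.fI Pm.dI

variable {T : GT} {Θ : T.X → T.X → ℂ} {M : Pm}

theorem cj_refl (x : T.X) : T.Cj x x := ⟨x.1, x.2, x.2, rfl, rfl, IsConj.refl _⟩

theorem cj_symm {x y : T.X} (h : T.Cj x y) : T.Cj y x := by
  obtain ⟨l, g, g', rfl, rfl, h⟩ := h
  exact ⟨l, g', g, rfl, rfl, h.symm⟩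

theorem cj_mk {l : T.Λ} {g g' : T.G l} : T.Cj ⟨l, g⟩ ⟨l, g'⟩ ↔ IsConj g g' := by
  refine ⟨?_, fun h => ⟨l, g, g', rfl, rfl, h⟩⟩
  rintro ⟨l, a, b, h1, h2, h⟩
  cases h1
  cases h2
  exact h

theorem cj_trans {x y z : T.X} (h : T.Cj x y) (h' : T.Cj y z) : T.Cj x z := by
  obtain ⟨l, g, g', rfl, rfl, h⟩ := h
  obtain ⟨l, a, b, h1, rfl, h2⟩ := h'
  cases h1
  exact cj_mk.2 (h.trans h2)

theorem cj_fst {x y : T.X} (h : T.Cj x y) : x.1 = y.1 := by
  obtain ⟨l, g, g', rfl, rfl, h⟩ := h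
  rfl

theorem val_cj (f : T.V) {x y : T.X} (h : T.Cj x y) : f.1 x = f.1 y := by
  obtain ⟨l, g, g', rfl, rfl, h⟩ := h
  obtain ⟨c, rfl⟩ := isConj_iff.1 h
  exact (f.2.1 l g c).symm

/-- the weight of an element -/
noncomputable def wt (x : T.X) : ℂ := (Nat.card (T.G x.1) : ℂ)⁻¹

theorem conj_wt (x : T.X) : conj (wt x) = wt x := by rw [wt, map_inv₀, Complex.conj_natCast]

theorem finite_rk (T : GT) (r : ℤ) : {l : T.Λ | (T.rk l : ℤ) = r}.Finite :=
  Set.Finite.of_finite_image (f := T.df) (Set.toFinite _) fun l hl l' hl' h =>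
    T.inj l l' (by exact_mod_cast hl.trans hl'.symm) h

/-- the elements of rank `r` -/
noncomputable def Xr (T : GT) (r : ℤ) : Finset T.X := (finite_rk T r).toFinset.sigma fun _ => Finset.univ

theorem mem_Xr {r : ℤ} {x : T.X} : x ∈ Xr T r ↔ (T.rk x.1 : ℤ) = r := by simp [Xr]

theorem sum_Xr (r : ℤ) (φ : T.X → ℂ) (ψ : T.Λ → ℂ)
    (h : ∀ l, ψ l = if (T.rk l : ℤ) = r then (Nat.card (T.G l) : ℂ)⁻¹ * ∑ g, φ ⟨l, g⟩ else 0) :
    ∑ᶠ l, ψ l = ∑ x ∈ Xr T r, wt x * φ x := by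
  rw [finsum_eq_sum_of_support_subset (s := (finite_rk T r).toFinset) _ fun l hl => by
    by_contra h1
    exact hl (by rw [h, if_neg (by simpa using h1)]), Xr, Finset.sum_sigma]
  refine Finset.sum_congr rfl fun l hl => ?_
  rw [h, if_pos (by simpa using hl), Finset.mul_sum]
  rfl

open Classical in
theorem sum_cj (y : T.X) : ∑ x ∈ Xr T (T.rk y.1), (if T.Cj y x then wt x * T.cen y else 0) = 1 := by
  obtain ⟨l, g⟩ := y
  rw [Xr, Finset.sum_sigma, Finset.sum_eq_single l (fun l' _ h => Finset.sum_eq_zero fun _ _ =>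
    if_neg fun h' => h (cj_fst h').symm) fun h => absurd (by simp) h]
  simp only [cj_mk, wt]
  rw [← Finset.sum_filter, Finset.sum_const, nsmul_eq_mul, ← Fintype.card_subtype, ← Nat.card_eq_fintype_card,
    mul_left_comm, GT.cen, ← Nat.cast_mul, H235.Ore.ClassList.card_class, inv_mul_cancel₀]
  exact Nat.cast_ne_zero.2 Nat.card_pos.ne'

theorem cen_cj {x y : T.X} (h : T.Cj x y) : T.cen x = T.cen y := by
  obtain ⟨l, g, g', rfl, rfl, h⟩ := h
  have h1 := H235.Ore.ClassList.card_class g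
  rw [← H235.Ore.ClassList.card_class g', Nat.card_congr (Equiv.subtypeEquivRight (q := fun y => IsConj g' y)
    fun y => ⟨fun h' => h.symm.trans h', fun h' => h.trans h'⟩)] at h1
  have : Nonempty {y // IsConj g' y} := ⟨⟨g', IsConj.refl _⟩⟩
  exact Nat.eq_of_mul_eq_mul_left Nat.card_pos h1

variable (Q : Pl T Θ M)

open Classical in
/-- an element of type `lam` with rest `y` -/
noncomputable def pt (lam : Ty M.I) (y : T.X) : T.X := if h : Q.typ y = 0 then (Q.onto lam y h).choose else y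

/-- the sign of a type -/
noncomputable def sn (P : Prop) (lam : Ty M.I) : ℂ := ((∏ i, Q.sg P i ^ (lam i).size : ℤˣ) : ℤ)

/-- the slice of a class function -/
noncomputable def sl (y : T.X) : T.V →ₗ[ℂ] E M where
  toFun f lam := sn Q (Od (T.df y.1)) lam * f.1 (pt Q lam y)
  map_add' _ _ := funext fun _ => mul_add _ _ _
  map_smul' _ _ := funext fun _ => mul_left_comm _ _ _

open Classical in
/-- the elements of rank `r` and type `0` -/
noncomputable def Yr (r : ℤ) : Finset T.X := (Xr T r).filter fun y => Q.typ y = 0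

/-- `a` acts as `A` on the slices -/
def Rp (A : End ℂ (E M)) (a : End ℂ T.V) : Prop := ∀ f y, Q.typ y = 0 → sl Q y (a f) = A (sl Q y f)

variable {Q}

theorem mem_Yr {r : ℤ} {y : T.X} : y ∈ Yr Q r ↔ (T.rk y.1 : ℤ) = r ∧ Q.typ y = 0 := by simp [Yr, mem_Xr]

theorem sl_apply (y : T.X) (f : T.V) (lam : Ty M.I) : sl Q y f lam = sn Q (Od (T.df y.1)) lam * f.1 (pt Q lam y) := rfl

theorem sn_sq (P : Prop) (lam : Ty M.I) : sn Q P lam * sn Q P lam = 1 := by
  rw [sn, ← Int.cast_mul, ← Units.val_mul, Int.units_mul_self, Units.val_one, Int.cast_one]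

theorem conj_sn (P : Prop) (lam : Ty M.I) : conj (sn Q P lam) = sn Q P lam := map_intCast _ _

theorem sn_zero (P : Prop) : sn Q P 0 = 1 := by simp [sn]

theorem typ_pt {y : T.X} (h : Q.typ y = 0) (lam : Ty M.I) : Q.typ (pt Q lam y) = lam := by
  rw [pt, dif_pos h]
  exact (Q.onto lam y h).choose_spec.1

theorem rest_pt {y : T.X} (h : Q.typ y = 0) (lam : Ty M.I) : T.Cj (Q.rest (pt Q lam y)) y := by
  rw [pt, dif_pos h]
  exact (Q.onto lam y h).choose_spec.2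

theorem cj_pt {x y : T.X} (h : Q.typ y = 0) {lam : Ty M.I} :
    T.Cj (pt Q lam y) x ↔ lam = Q.typ x ∧ T.Cj y (Q.rest x) := by
  rw [Q.cj, typ_pt h]
  exact and_congr_right fun _ => ⟨cj_trans (cj_symm (rest_pt h lam)), cj_trans (rest_pt h lam)⟩

theorem pt_self (x : T.X) : T.Cj (pt Q (Q.typ x) (Q.rest x)) x := (cj_pt (Q.typ_rest x)).2 ⟨rfl, cj_refl _⟩

theorem pt_cj {y y' : T.X} (h : T.Cj y y') (lam : Ty M.I) : T.Cj (pt Q lam y) (pt Q lam y') := by
  have h1 := ((Q.cj _ _).1 h).1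
  by_cases h0 : Q.typ y = 0
  · exact (cj_pt h0).2 ⟨(typ_pt (h1 ▸ h0) lam).symm, cj_trans h (cj_symm (rest_pt (h1 ▸ h0) lam))⟩
  · rwa [pt, pt, dif_neg h0, dif_neg (h1 ▸ h0)]

theorem sl_cj {y y' : T.X} (h : T.Cj y y') (f : T.V) : sl Q y f = sl Q y' f :=
  funext fun lam => by rw [sl_apply, sl_apply, cj_fst h, val_cj f (pt_cj h lam)]

theorem rk_pt {y : T.X} (h : Q.typ y = 0) (lam : Ty M.I) : T.rk (pt Q lam y).1 = M.k * tdeg M.d lam + T.rk y.1 := by
  rw [Q.rk, typ_pt h, cj_fst (rest_pt h lam)]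

theorem df_pt {y : T.X} (h : Q.typ y = 0) (lam : Ty M.I) :
    T.df (pt Q lam y).1 = T.df y.1 + sh M.ng (tdeg M.d lam) := by
  rw [Q.df, typ_pt h, cj_fst (rest_pt h lam)]

theorem od_sh (a : ZMod 4) (ng : Bool) (j : ℕ) : Od (a + sh ng j) = Od a := by
  refine propext ?_
  unfold sh Od
  generalize (j : ZMod 4) = b
  revert a b ng
  decide

theorem od_rest (x : T.X) : Od (T.df x.1) = Od (T.df (Q.rest x).1) := by rw [Q.df, od_sh]

theorem val_eq (f : T.V) (x : T.X) :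
    f.1 x = sn Q (Od (T.df x.1)) (Q.typ x) * sl Q (Q.rest x) f (Q.typ x) := by
  rw [sl_apply, ← od_rest, ← mul_assoc, sn_sq, one_mul, val_cj f (pt_self x)]

theorem ext_sl {f g : T.V} (h : ∀ y, Q.typ y = 0 → sl Q y f = sl Q y g) : f = g :=
  Subtype.ext (funext fun x => by rw [val_eq (Q := Q) f, val_eq (Q := Q) g, h _ (Q.typ_rest x)])

/-- the class function with given slices -/
theorem exists_sl (φ : T.X → E M) (h1 : ∀ y y', T.Cj y y' → φ y = φ y')
    (h2 : ∃ N, ∀ y lam, Q.typ y = 0 → N < M.k * tdeg M.d lam + T.rk y.1 → φ y lam = 0) :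
    ∃ f : T.V, ∀ y, Q.typ y = 0 → sl Q y f = φ y := by
  obtain ⟨N, hN⟩ := h2
  refine ⟨⟨fun x => sn Q (Od (T.df x.1)) (Q.typ x) * φ (Q.rest x) (Q.typ x), fun l g c => ?_, N, fun x hx => ?_⟩,
    fun y hy => funext fun lam => ?_⟩
  · obtain ⟨h3, h4⟩ := (Q.cj _ _).1 (cj_mk.2 (isConj_iff.2 ⟨c, rfl⟩ : IsConj g _))
    simp only [h3, h1 _ _ h4]
  · exact mul_eq_zero_of_right _ (hN _ _ (Q.typ_rest x) (Q.rk x ▸ hx))
  · simp only [sl_apply]
    rw [typ_pt hy, h1 _ _ (rest_pt hy lam), df_pt hy, od_sh, ← mul_assoc, sn_sq, one_mul]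

/-- operators from maps on families of slices -/
theorem exists_op (Φ : T.V →ₗ[ℂ] T.X → E M) (h1 : ∀ f y y', T.Cj y y' → Φ f y = Φ f y')
    (h2 : ∀ f, ∃ N, ∀ y lam, Q.typ y = 0 → N < M.k * tdeg M.d lam + T.rk y.1 → Φ f y lam = 0) :
    ∃ a : End ℂ T.V, ∀ f y, Q.typ y = 0 → sl Q y (a f) = Φ f y := by
  choose a ha using fun f => exists_sl (Q := Q) (Φ f) (h1 f) (h2 f)
  exact ⟨⟨⟨a, fun f g => ext_sl fun y hy => by rw [map_add, ha _ _ hy, ha _ _ hy, ha _ _ hy, map_add, Pi.add_apply]⟩,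
    fun c f => ext_sl fun y hy => by rw [RingHom.id_apply, map_smul, ha _ _ hy, ha _ _ hy, map_smul, Pi.smul_apply]⟩, ha⟩

theorem exists_rp {A : End ℂ (E M)} {j : ℤ} (hA : Dg M j A) : ∃ a, Rp Q A a := by
  refine exists_op (LinearMap.pi fun y => A ∘ₗ sl Q y) (fun f y y' h => congrArg A (sl_cj h f)) fun f => ?_
  obtain ⟨N, hN⟩ := f.2.2
  refine ⟨N + M.k * j.toNat, fun y lam hy h => hA _ _ fun mu hmu => ?_⟩
  rw [sl_apply, hN, mul_zero]
  rw [rk_pt hy]
  have h3 : M.k * tdeg M.d lam ≤ M.k * (tdeg M.d mu + j.toNat) := Nat.mul_le_mul_left _ (by omega)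
  rw [mul_add] at h3
  omega

namespace Rp

variable {A B : End ℂ (E M)} {a b : End ℂ T.V}

theorem ext (h : Rp Q A a) (h' : Rp Q B b) (e : A = B) : a = b :=
  LinearMap.ext fun f => ext_sl fun y hy => by rw [h f y hy, h' f y hy, e]

theorem mul (h : Rp Q A a) (h' : Rp Q B b) : Rp Q (A * B) (a * b) := fun f y hy => by
  rw [End.mul_apply, h _ y hy, h' f y hy, End.mul_apply]

theorem add (h : Rp Q A a) (h' : Rp Q B b) : Rp Q (A + B) (a + b) := fun f y hy => by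
  rw [LinearMap.add_apply, map_add, h _ y hy, h' f y hy, LinearMap.add_apply]

theorem smul (h : Rp Q A a) (c : ℂ) : Rp Q (c • A) (c • a) := fun f y hy => by
  rw [LinearMap.smul_apply, map_smul, h _ y hy, LinearMap.smul_apply]

theorem one : Rp Q 1 1 := fun _ _ _ => rfl

theorem zero : Rp Q 0 0 := fun _ _ _ => map_zero _

theorem sum {ι : Type} (s : Finset ι) {A : ι → End ℂ (E M)} {a : ι → End ℂ T.V} (h : ∀ i, Rp Q (A i) (a i)) :
    Rp Q (∑ i ∈ s, A i) (∑ i ∈ s, a i) := fun f y hy => by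
  rw [LinearMap.sum_apply, map_sum, LinearMap.sum_apply]
  exact Finset.sum_congr rfl fun i _ => h i f y hy

theorem nw {A : ℕ → End ℂ (E M)} {a : ℕ → End ℂ T.V} (h : ∀ i, Rp Q (A i) (a i)) (n : ℕ) :
    Rp Q (nw A n) (nw a n) := by
  induction n using Nat.strong_induction_on with
  | _ n ih =>
    cases n with
    | zero => rw [Th.nw, Th.nw]; exact one
    | succ n => rw [Th.nw, Th.nw]; exact (sum _ fun i => (h _).mul (ih _ (by omega))).smul _

theorem supp (h : Rp Q A a) {j : ℤ} (hA : Dg M j A) {f : T.V} {x : T.X}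
    (hx : ∀ mu, (tdeg M.d mu : ℤ) + j = tdeg M.d (Q.typ x) → f.1 (pt Q mu (Q.rest x)) = 0) : (a f).1 x = 0 := by
  rw [val_eq (Q := Q), h f _ (Q.typ_rest x), hA _ _ fun mu hmu => by rw [sl_apply, hx mu hmu, mul_zero], mul_zero]

end Rp

/-- **the sum over the elements of rank `r`** -/
theorem sum_cl (hE : EOK M) (φ : T.X → ℂ) (hφ : ∀ x x', T.Cj x x' → φ x = φ x') {r : ℤ} {N : ℕ} (hN : r < N) :
    ∑ x ∈ Xr T r, wt x * φ x = ∑ m ∈ Finset.range N, ∑ y ∈ Yr Q (r - M.k * m), wt y *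
      ∑ mu ∈ tofDeg M.d m, φ (pt Q mu y) / ((M.Q.sign : ℂ) ^ m * Ag M.d M.Q mu) := by
  classical
  have h0 : ∀ m, (M.Q.sign : ℂ) ^ m ≠ 0 := fun m => by
    rw [hE.sg, ep]
    split_ifs <;> simp
  have h1 : ∀ m ∈ Finset.range N, ∀ y ∈ Yr Q (r - M.k * m), wt y *
      ∑ mu ∈ tofDeg M.d m, φ (pt Q mu y) / ((M.Q.sign : ℂ) ^ m * Ag M.d M.Q mu) =
      ∑ x ∈ Xr T r, wt x * φ x * if m = tdeg M.d (Q.typ x) ∧ T.Cj (Q.rest x) y then wt y * T.cen (Q.rest x) else 0 := by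
    intro m _ y hy
    obtain ⟨h2, h3⟩ := mem_Yr.1 hy
    have h4 : ∀ mu ∈ tofDeg M.d m, wt y * (φ (pt Q mu y) / ((M.Q.sign : ℂ) ^ m * Ag M.d M.Q mu)) =
        ∑ x ∈ Xr T r, wt x * φ x * if mu = Q.typ x ∧ T.Cj (Q.rest x) y then wt y * T.cen (Q.rest x) else 0 := by
      intro mu hmu
      rw [mem_tofDeg (hE.fin _)] at hmu
      have h5 := sum_cj (pt Q mu y)
      rw [rk_pt h3, hmu, show ((M.k * m + T.rk y.1 : ℕ) : ℤ) = r by push_cast; omega, Q.cen, typ_pt h3, hmu,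
        cen_cj (rest_pt h3 mu)] at h5
      rw [← mul_one (wt y * _), ← h5, Finset.mul_sum]
      refine Finset.sum_congr rfl fun x _ => ?_
      by_cases h6 : T.Cj (pt Q mu y) x
      · have h7 := (cj_pt h3).1 h6
        have h8 := h0 m
        have h9 := hE.Ag_ne mu
        rw [if_pos h6, if_pos ⟨h7.1, cj_symm h7.2⟩, hφ _ _ h6, cen_cj h7.2]
        field_simp
      · rw [if_neg h6, if_neg fun h => h6 ((cj_pt h3).2 ⟨h.1, cj_symm h.2⟩), mul_zero, mul_zero]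
    rw [Finset.mul_sum, Finset.sum_congr rfl h4, Finset.sum_comm]
    refine Finset.sum_congr rfl fun x _ => ?_
    rw [← Finset.mul_sum]
    simp only [ite_and, Finset.sum_ite_eq', mem_tofDeg (hE.fin _), eq_comm (a := m)]
  rw [Finset.sum_congr rfl fun m hm => (Finset.sum_congr rfl (h1 m hm)).trans Finset.sum_comm, Finset.sum_comm]
  refine Finset.sum_congr rfl fun x hx => ?_
  have h2 := Q.rk x
  have h3 := mem_Xr.1 hx
  have h4 : tdeg M.d (Q.typ x) ≤ M.k * tdeg M.d (Q.typ x) := Nat.le_mul_of_pos_left _ M.k_pos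
  rw [Finset.sum_eq_single (tdeg M.d (Q.typ x)) (fun m _ h => Finset.sum_eq_zero fun y _ => by
    rw [if_neg fun h' => h h'.1, mul_zero]) fun h => absurd (Finset.mem_range.2 (by omega)) h, ← Finset.mul_sum,
    show r - M.k * tdeg M.d (Q.typ x) = T.rk (Q.rest x).1 by rw [← h3, h2]; push_cast; ring, Yr, Finset.sum_filter,
    Finset.sum_congr rfl fun y _ => ?_, sum_cj (Q.rest x), mul_one]
  by_cases h5 : T.Cj (Q.rest x) y
  · rw [if_pos (((Q.cj _ _).1 h5).1.symm.trans (Q.typ_rest x)), if_pos ⟨rfl, h5⟩, if_pos h5]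
  · rw [if_neg fun h : _ ∧ _ => h5 h.2, ite_self, if_neg h5]

end Cfsg.Agent.PQ.Lc
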